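import Cfsg.Agent.Lib.CosetCert.D.HeN.Lv1.Tab
import Cfsg.Agent.Lib.CosetCert.D.HeN.Lv1.C0
import Cfsg.Agent.Lib.CosetCert.D.HeN.Lv1.R0
import Cfsg.Agent.Lib.CosetCert.D.HeN.Lv1.S0

namespace Cfsg.Agent.Lib.CosetCert.D.HeN.Lv1.Ok

open Cfsg.Agent.Lib.CosetCert Cfsg.Agent.Lib.TC.Core Cfsg.Agent.Lib.TC.Enc Cfsg.Agent.Lib.TC.Pres Cfsg.Agent.Lib.TC.Perm Cfsg.Agent.Lib.TC.Main

set_option maxRecDepth 100000

open Cfsg.Agent.Lib.CosetCert.D.HeN.Lv1.Tab Cfsg.Agent.Lib.CosetCert.D.HeN.Tbl

/-- The point of the orbit. -/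
noncomputable def pt : ℕ → ℕ := cell 8 255 (nat_lit 0x1b1c347e7d3236075e59873a35305d390857247c18236b856a581a6c103b547472806d195a53113c445c4845414342704b1d0c2a4c710d1f264925274a66670a77120b7663642284830f06)

/-- The index of a point. -/
noncomputable def ptInv : ℕ → ℕ := cell 7 127 (nat_lit 0x80019830400029011e3370000000141c02b00a8a9b000142f68c800018340050c000000109e21009a0b1720002c4a00000000001634388a00000fa23a70f0000000235afdd800111f48011403d0000000005c0001e488386a100002600cc994c13b60000000002522e0200a18102c03a86000000000000)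

/-- The tree: parents. -/
noncomputable def tp : ℕ → ℕ := cell 7 127 (nat_lit 0xfddb666cd8b05cb15284e9d3254a911a24280f9e3a70d9a3464c982e5cb962a5499326488101e3460c162c50a12204070e183050a14204060c10204040810000000)

/-- The tree: letters. -/
noncomputable def tl : ℕ → ℕ := cell 2 3 (nat_lit 0x38e8d34d2e1f6212e4890408ee3b924e4938e4)

theorem hrelk : ∀ l ∈ rels, ∀ z ∈ l, z < L1.k := by decide +kernel

theorem hsubk : ∀ l ∈ subs, ∀ z ∈ l, z < L1.k := by decide +kernel

theorem hrelR : allR (guard 136 (wordFixes F1 rels)) 8 0 = true :=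
  Cfsg.Agent.Lib.CosetCert.D.HeN.Lv1.R0.ok

theorem hsubR : allR (guard 136 (fun x => wordIs F1 F2 subs x 0)) 8 0 = true :=
  Cfsg.Agent.Lib.CosetCert.D.HeN.Lv1.S0.ok

theorem allC0 : cert.chkRange 0 82 = true := Cfsg.Agent.Lib.CosetCert.D.HeN.Lv1.C0.ok
theorem allF0 : cert.chkFinal 0 82 = true := Cfsg.Agent.Lib.CosetCert.D.HeN.Lv1.C0.fin

theorem h0 : cert.eLvl (cert.par (cert.find cert.MAX cert.D 0)) = cert.MAX := by decide +kernel

theorem hcount : cert.countRoots cert.N = 75 := by
  rw [countRoots_eq_acc]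
  decide +kernel

theorem hchecked : Checked cert where
  hN := by decide
  hC := allC0
  hF := allF0
  h0 := h0

theorem h1 : chkRelRots cert inv1 rels witT.get = true := by decide +kernel

theorem h2 : chkSubRots cert subs = true := by decide +kernel

theorem hfix : allLt (fun s => Nat.beq (F2 s 6) 6) 4 = true := by decide +kernel

theorem horb : allR (guard 75 (orbOK F1 pt ptInv tp tl 4)) 7 0 = true := by decide +kernel

/-- The point. -/
def p : Fin 136 := ⟨6, by decide⟩

theorem h0pt : pt 0 = p := by decide +kernel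

/-- The level. -/
theorem result : LevelResult L1.G L2.G p 75 pt :=
  level_of_checks L1 L2 cert rfl rels subs witT.get hrelk
    (all_of_allR (by decide) hrelR) hsubk
    (all_of_allR (by decide) hsubR)
    (by decide) (by decide) h1 h2 hchecked hcount p (fun s hs => Nat.eq_of_beq_eq_true (allLt_spec hfix s hs))
    pt ptInv tp tl h0pt (all_of_allR (by decide) horb)

end Cfsg.Agent.Lib.CosetCert.D.HeN.Lv1.Ok
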